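import Cfsg.Agent.Lib.Helper56.Trio.R1

set_option autoImplicit false

/-! # Trio farm, piece C1 (helper56): the group of affine elements has at least 64512 elements
(stabiliser chain 24 · 7 · 6 · 4 · 16 with explicit coded permutations). -/

namespace Cfsg.Agent.Lib.Helper56.Trio

open Cfsg Cfsg.Agent.Lib.Helper27 Matrix
open scoped Pointwise

/-- the subgroup of the elements of `M24` acting affinely -/
def AA : Subgroup (Equiv.Perm GolayPt) where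
  carrier := {g | g ∈ M24 ∧ ∃ h, Rel g h}
  one_mem' := ⟨M24.one_mem, 1, rel_one⟩
  mul_mem' := fun {a b} ha hb => ⟨M24.mul_mem ha.1 hb.1, by
    obtain ⟨h, hh⟩ := ha.2
    obtain ⟨h', hh'⟩ := hb.2
    exact ⟨h * h', rel_mul hh hh'⟩⟩
  inv_mem' := fun {a} ha => ⟨M24.inv_mem ha.1, by
    obtain ⟨h, hh⟩ := ha.2
    exact ⟨h⁻¹, rel_inv hh⟩⟩

theorem C1_mem (c : ℕ) (h : HH) (cv : Fin 3 → V3) (h1 : checkM24 c = true)
    (h2 : ∀ i : Fin 24, ocI (ent c i) = h.2 (ocI i) ∧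
      lamI (ent c i) = (h.1 : Matrix (Fin 3) (Fin 3) (ZMod 2)) *ᵥ lamI i + cv (ocI i)) :
    validCode c = true ∧ permOf c ∈ AA := by
  have hv : validCode c = true := valid_of_check h1
  refine ⟨hv, permOf_mem_M24 h1, h, cv, fun p => ?_⟩
  rw [permOf_apply hv]
  unfold oc lam
  rw [idx_pt (ent_lt_of_valid hv _ (idx_lt p))]
  exact h2 ⟨idx p, idx_lt p⟩

theorem C1_fix (c b : ℕ) (hv : validCode c = true) (hb : b < 24) (h : ent c b = b) :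
    permOf c ∈ MulAction.stabilizer (Equiv.Perm GolayPt) (pt b) := by
  rw [MulAction.mem_stabilizer_iff]
  show permOf c (pt b) = pt b
  rw [permOf_apply hv, idx_pt hb, h]

theorem C1_step (H : Subgroup (Equiv.Perm GolayPt)) (b : GolayPt) (S : Finset GolayPt)
    (h : ∀ q ∈ S, ∃ g ∈ H, g b = q) :
    S.card * Nat.card ↥(H ⊓ MulAction.stabilizer (Equiv.Perm GolayPt) b) ≤ Nat.card H := by
  have h1 := Subgroup.card_mul_index (MulAction.stabilizer H b)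
  rw [MulAction.index_stabilizer] at h1
  have h2 : S.card ≤ (MulAction.orbit H b).ncard := by
    rw [← Set.ncard_coe_finset]
    apply Set.ncard_le_ncard _ (Set.toFinite _)
    intro q hq
    obtain ⟨g, hg, rfl⟩ := h q hq
    exact ⟨⟨g, hg⟩, rfl⟩
  have h3 : Nat.card (MulAction.stabilizer H b) =
      Nat.card ↥(H ⊓ MulAction.stabilizer (Equiv.Perm GolayPt) b) := by
    apply Nat.card_congr
    exact ⟨fun g => ⟨g.1.1, Subgroup.mem_inf.2 ⟨g.1.2, g.2⟩⟩,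
      fun g => ⟨⟨g.1, (Subgroup.mem_inf.1 g.2).1⟩, (Subgroup.mem_inf.1 g.2).2⟩,
      fun g => rfl, fun g => rfl⟩
  rw [← h1, h3, Nat.mul_comm]
  exact Nat.mul_le_mul_left _ h2

theorem C1_level (H : Subgroup (Equiv.Perm GolayPt)) {b : ℕ} (hb : b < 24) (gens : List ℕ)
    (hg : ∀ c ∈ gens, validCode c = true ∧ permOf c ∈ H) (n k : ℕ)
    (hk : pc (orbIter gens (2 ^ b) n) = k) :
    k * Nat.card ↥(H ⊓ MulAction.stabilizer (Equiv.Perm GolayPt) (pt b)) ≤ Nat.card H := by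
  have := C1_step H (pt b) (unmask (orbIter gens (2 ^ b) n)) (orbIter_sound H hb gens hg n).2
  rwa [card_unmask, hk] at this

def C1_g0_0c : ℕ := 641481323428609894465136185121058421
def C1_g0_0h : HH := (⟨!![0, 0, 1; 0, 1, 1; 1, 0, 1], !![1, 0, 1; 1, 1, 0; 1, 0, 0], by decide +kernel, by decide +kernel⟩,
  ⟨![2, 1, 0], ![2, 1, 0], by decide, by decide⟩)
theorem C1_g0_0 : validCode C1_g0_0c = true ∧ permOf C1_g0_0c ∈ AA :=
  C1_mem C1_g0_0c C1_g0_0h ![![1, 1, 0], ![0, 1, 0], ![0, 1, 0]]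
    (by decide +kernel) (by decide +kernel)

def C1_g0_1c : ℕ := 937591464682100163566985382612849141
def C1_g0_1h : HH := (⟨!![1, 1, 1; 0, 0, 1; 0, 1, 0], !![1, 1, 1; 0, 0, 1; 0, 1, 0], by decide +kernel, by decide +kernel⟩,
  ⟨![2, 0, 1], ![1, 2, 0], by decide, by decide⟩)
theorem C1_g0_1 : validCode C1_g0_1c = true ∧ permOf C1_g0_1c ∈ AA :=
  C1_mem C1_g0_1c C1_g0_1h ![![1, 1, 0], ![0, 0, 1], ![1, 0, 0]]
    (by decide +kernel) (by decide +kernel)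

def C1_g1_0c : ℕ := 726085686298841712364765018390060096
def C1_g1_0h : HH := (⟨!![0, 1, 0; 1, 1, 1; 0, 1, 1], !![0, 1, 1; 1, 0, 0; 1, 0, 1], by decide +kernel, by decide +kernel⟩,
  ⟨![0, 1, 2], ![0, 1, 2], by decide, by decide⟩)
theorem C1_g1_0 : validCode C1_g1_0c = true ∧ permOf C1_g1_0c ∈ AA :=
  C1_mem C1_g1_0c C1_g1_0h ![![0, 0, 0], ![1, 0, 1], ![0, 0, 1]]
    (by decide +kernel) (by decide +kernel)

def C1_g2_0c : ℕ := 718167566449494173796128827772057632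
def C1_g2_0h : HH := (⟨!![1, 1, 1; 0, 0, 1; 0, 1, 1], !![1, 0, 1; 0, 1, 1; 0, 1, 0], by decide +kernel, by decide +kernel⟩,
  ⟨![0, 2, 1], ![0, 2, 1], by decide, by decide⟩)
theorem C1_g2_0 : validCode C1_g2_0c = true ∧ permOf C1_g2_0c ∈ AA :=
  C1_mem C1_g2_0c C1_g2_0h ![![0, 0, 0], ![1, 0, 1], ![0, 1, 0]]
    (by decide +kernel) (by decide +kernel)

def C1_g2_1c : ℕ := 593484327370956287512032656367979552
def C1_g2_1h : HH := (⟨!![1, 0, 0; 0, 1, 1; 0, 1, 0], !![1, 0, 0; 0, 0, 1; 0, 1, 1], by decide +kernel, by decide +kernel⟩,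
  ⟨![0, 2, 1], ![0, 2, 1], by decide, by decide⟩)
theorem C1_g2_1 : validCode C1_g2_1c = true ∧ permOf C1_g2_1c ∈ AA :=
  C1_mem C1_g2_1c C1_g2_1h ![![0, 0, 0], ![1, 0, 1], ![1, 1, 1]]
    (by decide +kernel) (by decide +kernel)

def C1_g3_0c : ℕ := 223739868615772160679120997893736480
def C1_g3_0h : HH := (⟨!![1, 0, 1; 0, 1, 1; 0, 0, 1], !![1, 0, 1; 0, 1, 1; 0, 0, 1], by decide +kernel, by decide +kernel⟩,
  ⟨![0, 1, 2], ![0, 1, 2], by decide, by decide⟩)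
theorem C1_g3_0 : validCode C1_g3_0c = true ∧ permOf C1_g3_0c ∈ AA :=
  C1_mem C1_g3_0c C1_g3_0h ![![0, 0, 0], ![1, 1, 0], ![0, 1, 0]]
    (by decide +kernel) (by decide +kernel)

def C1_g3_1c : ℕ := 599154071469187512297829450131867680
def C1_g3_1h : HH := (⟨!![1, 0, 0; 0, 1, 1; 0, 0, 1], !![1, 0, 0; 0, 1, 1; 0, 0, 1], by decide +kernel, by decide +kernel⟩,
  ⟨![0, 2, 1], ![0, 2, 1], by decide, by decide⟩)
theorem C1_g3_1 : validCode C1_g3_1c = true ∧ permOf C1_g3_1c ∈ AA :=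
  C1_mem C1_g3_1c C1_g3_1h ![![0, 0, 0], ![0, 1, 0], ![1, 0, 0]]
    (by decide +kernel) (by decide +kernel)

def C1_g4_0c : ℕ := 968708902336673183175954409307867168
def C1_g4_0h : HH := (⟨!![1, 0, 0; 0, 1, 0; 0, 0, 1], !![1, 0, 0; 0, 1, 0; 0, 0, 1], by decide +kernel, by decide +kernel⟩,
  ⟨![0, 2, 1], ![0, 2, 1], by decide, by decide⟩)
theorem C1_g4_0 : validCode C1_g4_0c = true ∧ permOf C1_g4_0c ∈ AA :=
  C1_mem C1_g4_0c C1_g4_0h ![![0, 0, 0], ![1, 0, 1], ![1, 0, 1]]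
    (by decide +kernel) (by decide +kernel)

def C1_g4_1c : ℕ := 971592882964418941354553515258775584
def C1_g4_1h : HH := (⟨!![1, 0, 0; 0, 1, 0; 0, 0, 1], !![1, 0, 0; 0, 1, 0; 0, 0, 1], by decide +kernel, by decide +kernel⟩,
  ⟨![0, 1, 2], ![0, 1, 2], by decide, by decide⟩)
theorem C1_g4_1 : validCode C1_g4_1c = true ∧ permOf C1_g4_1c ∈ AA :=
  C1_mem C1_g4_1c C1_g4_1h ![![0, 0, 0], ![1, 0, 0], ![1, 0, 0]]
    (by decide +kernel) (by decide +kernel)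

def C1_g4_2c : ℕ := 961365507626256404119956257276790816
def C1_g4_2h : HH := (⟨!![1, 0, 0; 0, 1, 0; 0, 0, 1], !![1, 0, 0; 0, 1, 0; 0, 0, 1], by decide +kernel, by decide +kernel⟩,
  ⟨![0, 1, 2], ![0, 1, 2], by decide, by decide⟩)
theorem C1_g4_2 : validCode C1_g4_2c = true ∧ permOf C1_g4_2c ∈ AA :=
  C1_mem C1_g4_2c C1_g4_2h ![![0, 0, 0], ![0, 0, 1], ![0, 0, 1]]
    (by decide +kernel) (by decide +kernel)

def C1_g4_3c : ℕ := 966182099583441531322624363496310816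
def C1_g4_3h : HH := (⟨!![1, 0, 0; 0, 1, 0; 0, 0, 1], !![1, 0, 0; 0, 1, 0; 0, 0, 1], by decide +kernel, by decide +kernel⟩,
  ⟨![0, 2, 1], ![0, 2, 1], by decide, by decide⟩)
theorem C1_g4_3 : validCode C1_g4_3c = true ∧ permOf C1_g4_3c ∈ AA :=
  C1_mem C1_g4_3c C1_g4_3h ![![0, 0, 0], ![0, 1, 0], ![0, 1, 0]]
    (by decide +kernel) (by decide +kernel)

def C1_H1 : Subgroup (Equiv.Perm GolayPt) := AA ⊓ MulAction.stabilizer (Equiv.Perm GolayPt) (pt 0)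
def C1_H2 : Subgroup (Equiv.Perm GolayPt) := C1_H1 ⊓ MulAction.stabilizer (Equiv.Perm GolayPt) (pt 1)
def C1_H3 : Subgroup (Equiv.Perm GolayPt) := C1_H2 ⊓ MulAction.stabilizer (Equiv.Perm GolayPt) (pt 2)
def C1_H4 : Subgroup (Equiv.Perm GolayPt) := C1_H3 ⊓ MulAction.stabilizer (Equiv.Perm GolayPt) (pt 3)
def C1_H5 : Subgroup (Equiv.Perm GolayPt) := C1_H4 ⊓ MulAction.stabilizer (Equiv.Perm GolayPt) (pt 4)

theorem C1_g0_0m : validCode C1_g0_0c = true ∧ permOf C1_g0_0c ∈ AA := ⟨C1_g0_0.1, C1_g0_0.2⟩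
theorem C1_g0_1m : validCode C1_g0_1c = true ∧ permOf C1_g0_1c ∈ AA := ⟨C1_g0_1.1, C1_g0_1.2⟩
theorem C1_lev0 : 24 * Nat.card ↥C1_H1 ≤ Nat.card ↥AA := by
  refine C1_level AA (b := 0) (by norm_num) [C1_g0_0c, C1_g0_1c] ?_ 7 24 (by decide +kernel)
  intro c hc
  simp only [List.mem_cons, List.not_mem_nil, or_false] at hc
  rcases hc with rfl | rfl
  · exact C1_g0_0m
  · exact C1_g0_1m

theorem C1_g1_0m : validCode C1_g1_0c = true ∧ permOf C1_g1_0c ∈ C1_H1 := ⟨C1_g1_0.1, Subgroup.mem_inf.2 ⟨C1_g1_0.2, C1_fix _ 0 C1_g1_0.1 (by norm_num) (by decide +kernel)⟩⟩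
theorem C1_lev1 : 7 * Nat.card ↥C1_H2 ≤ Nat.card ↥C1_H1 := by
  refine C1_level C1_H1 (b := 1) (by norm_num) [C1_g1_0c] ?_ 7 7 (by decide +kernel)
  intro c hc
  simp only [List.mem_cons, List.not_mem_nil, or_false] at hc
  rcases hc with rfl
  · exact C1_g1_0m

theorem C1_g2_0m : validCode C1_g2_0c = true ∧ permOf C1_g2_0c ∈ C1_H2 := ⟨C1_g2_0.1, Subgroup.mem_inf.2 ⟨Subgroup.mem_inf.2 ⟨C1_g2_0.2, C1_fix _ 0 C1_g2_0.1 (by norm_num) (by decide +kernel)⟩, C1_fix _ 1 C1_g2_0.1 (by norm_num) (by decide +kernel)⟩⟩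
theorem C1_g2_1m : validCode C1_g2_1c = true ∧ permOf C1_g2_1c ∈ C1_H2 := ⟨C1_g2_1.1, Subgroup.mem_inf.2 ⟨Subgroup.mem_inf.2 ⟨C1_g2_1.2, C1_fix _ 0 C1_g2_1.1 (by norm_num) (by decide +kernel)⟩, C1_fix _ 1 C1_g2_1.1 (by norm_num) (by decide +kernel)⟩⟩
theorem C1_lev2 : 6 * Nat.card ↥C1_H3 ≤ Nat.card ↥C1_H2 := by
  refine C1_level C1_H2 (b := 2) (by norm_num) [C1_g2_0c, C1_g2_1c] ?_ 4 6 (by decide +kernel)
  intro c hc
  simp only [List.mem_cons, List.not_mem_nil, or_false] at hc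
  rcases hc with rfl | rfl
  · exact C1_g2_0m
  · exact C1_g2_1m

theorem C1_g3_0m : validCode C1_g3_0c = true ∧ permOf C1_g3_0c ∈ C1_H3 := ⟨C1_g3_0.1, Subgroup.mem_inf.2 ⟨Subgroup.mem_inf.2 ⟨Subgroup.mem_inf.2 ⟨C1_g3_0.2, C1_fix _ 0 C1_g3_0.1 (by norm_num) (by decide +kernel)⟩, C1_fix _ 1 C1_g3_0.1 (by norm_num) (by decide +kernel)⟩, C1_fix _ 2 C1_g3_0.1 (by norm_num) (by decide +kernel)⟩⟩
theorem C1_g3_1m : validCode C1_g3_1c = true ∧ permOf C1_g3_1c ∈ C1_H3 := ⟨C1_g3_1.1, Subgroup.mem_inf.2 ⟨Subgroup.mem_inf.2 ⟨Subgroup.mem_inf.2 ⟨C1_g3_1.2, C1_fix _ 0 C1_g3_1.1 (by norm_num) (by decide +kernel)⟩, C1_fix _ 1 C1_g3_1.1 (by norm_num) (by decide +kernel)⟩, C1_fix _ 2 C1_g3_1.1 (by norm_num) (by decide +kernel)⟩⟩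
theorem C1_lev3 : 4 * Nat.card ↥C1_H4 ≤ Nat.card ↥C1_H3 := by
  refine C1_level C1_H3 (b := 3) (by norm_num) [C1_g3_0c, C1_g3_1c] ?_ 3 4 (by decide +kernel)
  intro c hc
  simp only [List.mem_cons, List.not_mem_nil, or_false] at hc
  rcases hc with rfl | rfl
  · exact C1_g3_0m
  · exact C1_g3_1m

theorem C1_g4_0m : validCode C1_g4_0c = true ∧ permOf C1_g4_0c ∈ C1_H4 := ⟨C1_g4_0.1, Subgroup.mem_inf.2 ⟨Subgroup.mem_inf.2 ⟨Subgroup.mem_inf.2 ⟨Subgroup.mem_inf.2 ⟨C1_g4_0.2, C1_fix _ 0 C1_g4_0.1 (by norm_num) (by decide +kernel)⟩, C1_fix _ 1 C1_g4_0.1 (by norm_num) (by decide +kernel)⟩, C1_fix _ 2 C1_g4_0.1 (by norm_num) (by decide +kernel)⟩, C1_fix _ 3 C1_g4_0.1 (by norm_num) (by decide +kernel)⟩⟩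
theorem C1_g4_1m : validCode C1_g4_1c = true ∧ permOf C1_g4_1c ∈ C1_H4 := ⟨C1_g4_1.1, Subgroup.mem_inf.2 ⟨Subgroup.mem_inf.2 ⟨Subgroup.mem_inf.2 ⟨Subgroup.mem_inf.2 ⟨C1_g4_1.2, C1_fix _ 0 C1_g4_1.1 (by norm_num) (by decide +kernel)⟩, C1_fix _ 1 C1_g4_1.1 (by norm_num) (by decide +kernel)⟩, C1_fix _ 2 C1_g4_1.1 (by norm_num) (by decide +kernel)⟩, C1_fix _ 3 C1_g4_1.1 (by norm_num) (by decide +kernel)⟩⟩
theorem C1_g4_2m : validCode C1_g4_2c = true ∧ permOf C1_g4_2c ∈ C1_H4 := ⟨C1_g4_2.1, Subgroup.mem_inf.2 ⟨Subgroup.mem_inf.2 ⟨Subgroup.mem_inf.2 ⟨Subgroup.mem_inf.2 ⟨C1_g4_2.2, C1_fix _ 0 C1_g4_2.1 (by norm_num) (by decide +kernel)⟩, C1_fix _ 1 C1_g4_2.1 (by norm_num) (by decide +kernel)⟩, C1_fix _ 2 C1_g4_2.1 (by norm_num) (by decide +kernel)⟩, C1_fix _ 3 C1_g4_2.1 (by norm_num) (by decide +kernel)⟩⟩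
theorem C1_g4_3m : validCode C1_g4_3c = true ∧ permOf C1_g4_3c ∈ C1_H4 := ⟨C1_g4_3.1, Subgroup.mem_inf.2 ⟨Subgroup.mem_inf.2 ⟨Subgroup.mem_inf.2 ⟨Subgroup.mem_inf.2 ⟨C1_g4_3.2, C1_fix _ 0 C1_g4_3.1 (by norm_num) (by decide +kernel)⟩, C1_fix _ 1 C1_g4_3.1 (by norm_num) (by decide +kernel)⟩, C1_fix _ 2 C1_g4_3.1 (by norm_num) (by decide +kernel)⟩, C1_fix _ 3 C1_g4_3.1 (by norm_num) (by decide +kernel)⟩⟩
theorem C1_lev4 : 16 * Nat.card ↥C1_H5 ≤ Nat.card ↥C1_H4 := by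
  refine C1_level C1_H4 (b := 4) (by norm_num) [C1_g4_0c, C1_g4_1c, C1_g4_2c, C1_g4_3c] ?_ 5 16 (by decide +kernel)
  intro c hc
  simp only [List.mem_cons, List.not_mem_nil, or_false] at hc
  rcases hc with rfl | rfl | rfl | rfl
  · exact C1_g4_0m
  · exact C1_g4_1m
  · exact C1_g4_2m
  · exact C1_g4_3m

/-- [C1] stabiliser chain 24·7·6·4·16 with explicit elements -/
theorem card_A : 64512 ≤ Nat.card {g : Equiv.Perm GolayPt // g ∈ M24 ∧ ∃ h, Rel g h} := by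
  have h0 : Nat.card {g : Equiv.Perm GolayPt // g ∈ M24 ∧ ∃ h, Rel g h} = Nat.card ↥AA := rfl
  rw [h0]
  have h5 : 1 ≤ Nat.card ↥C1_H5 := Nat.card_pos
  have l0 := C1_lev0
  have l1 := C1_lev1
  have l2 := C1_lev2
  have l3 := C1_lev3
  have l4 := C1_lev4
  omega

end Cfsg.Agent.Lib.Helper56.Trio
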