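import Cfsg.Agent.Lib.Helper56.Trio.Defs

set_option autoImplicit false

namespace Cfsg.Agent.Lib.Helper56.Trio

open Cfsg Cfsg.Agent.Lib.Helper27 Cfsg.Agent.Lib.Helper93 Matrix
open scoped Pointwise

/-- [D0] -/
theorem lab_inj (p q : GolayPt) (h1 : oc p = oc q) (h2 : lam p = lam q) : p = q := by
  revert p q; decide +kernel

/-- [D0] every label occurs -/
theorem lab_surj (i : Fin 3) (v : V3) : ∃ p, oc p = i ∧ lam p = v := by
  revert i v; decide +kernel

end Cfsg.Agent.Lib.Helper56.Trio
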