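import Cfsg.Agent.Lib.Helper56.Trio.Defs

set_option autoImplicit false

namespace Cfsg.Agent.Lib.Helper56.Trio

open Cfsg Cfsg.Agent.Lib.Helper27 Cfsg.Agent.Lib.Helper93 Matrix
open scoped Pointwise

theorem D1_oct0 : Oct 0 = unmask 8536111 := by decide +kernel
theorem D1_oct1 : Oct 1 = unmask 337856 := by decide +kernel
theorem D1_oct2 : Oct 2 = unmask 7903248 := by decide +kernel

theorem D1_oct_mem (i : Fin 3) : Oct i ∈ octads := by
  fin_cases i
  · show Oct 0 ∈ octads
    rw [D1_oct0]; exact unmask_mem_octads (by decide +kernel) (by decide +kernel)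
  · show Oct 1 ∈ octads
    rw [D1_oct1]; exact unmask_mem_octads (by decide +kernel) (by decide +kernel)
  · show Oct 2 ∈ octads
    rw [D1_oct2]; exact unmask_mem_octads (by decide +kernel) (by decide +kernel)

theorem D1_disj (i j : Fin 3) (h : i ≠ j) : Disjoint (Oct i) (Oct j) := by
  rw [Finset.disjoint_left]
  intro p hp hq
  simp only [Oct, Finset.mem_filter, Finset.mem_univ, true_and] at hp hq
  exact h (hp.symm.trans hq)

/-- [D1] -/
theorem T0_mem : T0 ∈ trios := by
  refine ⟨by decide +kernel, ?_, ?_⟩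
  · intro o ho
    simp only [T0, Finset.mem_image, Finset.mem_univ, true_and] at ho
    obtain ⟨i, rfl⟩ := ho
    exact D1_oct_mem i
  · intro o ho o' ho' hne
    simp only [T0, Finset.mem_image, Finset.mem_univ, true_and] at ho ho'
    obtain ⟨i, rfl⟩ := ho
    obtain ⟨j, rfl⟩ := ho'
    exact D1_disj i j (fun h => hne (by rw [h]))

end Cfsg.Agent.Lib.Helper56.Trio
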