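import Cfsg.Agent.Lib.Helper56.Trio.Defs
import Cfsg.Agent.Lib.Helper56.Trio.D1
import Cfsg.Agent.Lib.Helper93.M24Trios

set_option autoImplicit false

namespace Cfsg.Agent.Lib.Helper56.Trio

open Cfsg Cfsg.Agent.Lib.Helper27 Cfsg.Agent.Lib.Helper93 Cfsg.Agent.Lib.Helper93.Eng Matrix
open scoped Pointwise

theorem D2_orbit : MulAction.orbit M24 T0 = trios := by
  ext T
  constructor
  · rintro ⟨g, rfl⟩
    exact trios_invariant g.1 g.2 T0 T0_mem
  · intro hT
    obtain ⟨g, hg, h⟩ := trios_transitive T0_mem hT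
    exact ⟨⟨g, hg⟩, h⟩

/-- [D2] orbit-stabiliser -/
theorem card_stab : Nat.card (MulAction.stabilizer M24 T0) = 64512 := by
  have h1 := (MulAction.stabilizer M24 T0).card_mul_index
  have h2 : (MulAction.stabilizer M24 T0).index = 3795 := by
    rw [MulAction.index_stabilizer, D2_orbit, ncard_trios]
  rw [h2, card_M24] at h1
  have h3 : (244823040 : ℕ) = 64512 * 3795 := by norm_num
  rw [h3] at h1
  exact Nat.eq_of_mul_eq_mul_right (by norm_num) h1

end Cfsg.Agent.Lib.Helper56.Trio
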