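import Cfsg.Agent.Lib.Helper27.Chain
import Cfsg.Agent.Lib.Helper27.M24Order
import Cfsg.Agent.Lib.Helper93.M24Trans
import Cfsg.Agent.Lib.Helper54.RelHom

/-!
# The trio stabiliser `2^6 : (L₃(2) × S₃)` in `M24` (helper56, S1558): definitions

The 24 points are labelled by `(oc p, lam p) ∈ Fin 3 × F₂³` (`oc` = which octad of the standard trio, `lam` = affine
coordinates in that octad).  An element of the trio stabiliser acts as
`(i, v) ↦ (σ i, A v + c i)`; `Rel g (A, σ)` says so.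
-/

set_option autoImplicit false

namespace Cfsg.Agent.Lib.Helper56.Trio

open Cfsg Cfsg.Agent.Lib.Helper27 Matrix
open scoped Pointwise

abbrev V3 : Type := Fin 3 → ZMod 2
abbrev HH : Type := GL (Fin 3) (ZMod 2) × Equiv.Perm (Fin 3)

def ocL : List (Fin 3) := [0, 0, 0, 0, 2, 0, 1, 1, 1, 1, 1, 2, 2, 1, 0, 2, 1, 0, 1, 2, 2, 2, 2, 0]
def lamL : List V3 := [![0, 0, 0], ![1, 0, 0], ![0, 1, 0], ![0, 1, 1], ![0, 0, 0], ![0, 0, 1], ![0, 0, 0], ![0, 0, 1], ![0, 1, 1], ![1, 0, 1], ![1, 0, 0], ![1, 0, 0], ![1, 0, 1], ![1, 1, 1], ![1, 0, 1], ![0, 1, 0], ![1, 1, 0], ![1, 1, 0], ![0, 1, 0], ![1, 1, 1], ![0, 1, 1], ![1, 1, 0], ![0, 0, 1], ![1, 1, 1]]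

def ocI (i : ℕ) : Fin 3 := ocL.getD i 0
def lamI (i : ℕ) : V3 := lamL.getD i 0

/-- the octad of the standard trio containing `p` -/
def oc (p : GolayPt) : Fin 3 := ocI (idx p)
/-- the affine coordinates of `p` in its octad -/
def lam (p : GolayPt) : V3 := lamI (idx p)

/-- `g` acts as `(i, v) ↦ (σ i, A v + c i)` -/
def Rel (g : Equiv.Perm GolayPt) (h : HH) : Prop :=
  ∃ c : Fin 3 → V3, ∀ p, oc (g p) = h.2 (oc p) ∧
    lam (g p) = (h.1 : Matrix (Fin 3) (Fin 3) (ZMod 2)) *ᵥ lam p + c (oc p)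

/-- the three octads -/
def Oct (i : Fin 3) : Finset GolayPt := Finset.univ.filter (fun p => oc p = i)

/-- the standard trio -/
def T0 : Finset (Finset GolayPt) := Finset.univ.image Oct

/-- the statement of S1558 for a trio `T` -/
def Stmt (T : Finset (Finset GolayPt)) : Prop :=
  (∀ e : Equiv.Perm ↥T, ∃ g ∈ MulAction.stabilizer Cfsg.M24 T, ∀ o : ↥T,
    (g : Equiv.Perm Cfsg.GolayPt) • (o : Finset Cfsg.GolayPt) = ((e o : ↥T) : Finset Cfsg.GolayPt)) ∧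
  ∃ (N : Subgroup ↥(MulAction.stabilizer Cfsg.M24 T)) (_ : N.Normal), Nat.card N = 64 ∧
    (∀ x ∈ N, x * x = 1) ∧
    Nonempty (↥(MulAction.stabilizer Cfsg.M24 T) ⧸ N ≃* GL (Fin 3) (ZMod 2) × Equiv.Perm (Fin 3))

end Cfsg.Agent.Lib.Helper56.Trio
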