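import Cfsg.Agent.Lib.Helper56.Trio.Defs
import Cfsg.Agent.Lib.Helper56.Trio.D0

set_option autoImplicit false

namespace Cfsg.Agent.Lib.Helper56.Trio

open Cfsg Cfsg.Agent.Lib.Helper27 Cfsg.Agent.Lib.Helper93 Matrix
open scoped Pointwise

/-- [K1] aux : explicit form of `Rel g 1` -/
theorem K1_rel_one {g : Equiv.Perm GolayPt} (a : Rel g 1) :
    ∃ c : Fin 3 → V3, ∀ p, oc (g p) = oc p ∧ lam (g p) = lam p + c (oc p) := by
  obtain ⟨c, hc⟩ := a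
  refine ⟨c, fun p => ?_⟩
  obtain ⟨h1, h2⟩ := hc p
  refine ⟨by simpa using h1, ?_⟩
  rw [h2]
  simp

/-- [K1] -/
theorem ker_sq {g : Equiv.Perm GolayPt} (a : Rel g 1) : g * g = 1 := by
  obtain ⟨c, hc⟩ := K1_rel_one a
  apply Equiv.ext
  intro p
  show g (g p) = p
  obtain ⟨h1, h2⟩ := hc p
  obtain ⟨h3, h4⟩ := hc (g p)
  apply lab_inj
  · rw [h3, h1]
  · rw [h4, h2, h1, add_assoc, CharTwo.add_self_eq_zero, add_zero]

end Cfsg.Agent.Lib.Helper56.Trio
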