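import Cfsg.Agent.Lib.Helper56.Trio.Defs
import Cfsg.Agent.Lib.Helper27.OctadPointwise

set_option autoImplicit false

namespace Cfsg.Agent.Lib.Helper56.Trio

open Cfsg Cfsg.Agent.Lib.Helper27 Cfsg.Agent.Lib.Helper93 Matrix
open scoped Pointwise

theorem K2a_lab_inj (p q : GolayPt) (h1 : oc p = oc q) (h2 : lam p = lam q) : p = q := by
  revert p q
  decide +kernel

/-- [K2a] rigidity. -/
theorem ker_rigid {g : Equiv.Perm GolayPt} (hg : g ∈ M24) (a : Rel g 1) (h0 : g (pt 0) = pt 0)
    (h1 : g (pt 4) = pt 4) : g = 1 := by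
  obtain ⟨c, hc⟩ := a
  have hoc : ∀ p, oc (g p) = oc p := fun p => by
    have := (hc p).1
    simpa using this
  have hlam : ∀ p, lam (g p) = lam p + c (oc p) := fun p => by
    have := (hc p).2
    simpa using this
  have hc0 : c 0 = 0 := by
    have h := hlam (pt 0)
    rw [h0] at h
    have e : oc (pt 0) = 0 := by decide
    rw [e] at h
    exact (left_eq_add.1 h)
  have hfix : ∀ p, oc p = 0 → g p = p := by
    intro p hp
    apply K2a_lab_inj _ _ (hoc p)
    rw [hlam p, hp, hc0, add_zero]
  have hmem : g ∈ fixer (2 ^ 4 :: PO) := by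
    rw [mem_fixer]
    refine ⟨hg, ?_⟩
    intro m hm
    simp only [PO, List.mem_cons, List.not_mem_nil, or_false] at hm
    rcases hm with rfl | rfl | rfl | rfl | rfl | rfl | rfl | rfl | rfl
    · exact (smul_unmask_two_pow (by norm_num) g).2 h1
    · exact (smul_unmask_two_pow (by norm_num) g).2 (hfix _ (by decide))
    · exact (smul_unmask_two_pow (by norm_num) g).2 (hfix _ (by decide))
    · exact (smul_unmask_two_pow (by norm_num) g).2 (hfix _ (by decide))
    · exact (smul_unmask_two_pow (by norm_num) g).2 (hfix _ (by decide))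
    · exact (smul_unmask_two_pow (by norm_num) g).2 (hfix _ (by decide))
    · exact (smul_unmask_two_pow (by norm_num) g).2 (hfix _ (by decide))
    · exact (smul_unmask_two_pow (by norm_num) g).2 (hfix _ (by decide))
    · exact (smul_unmask_two_pow (by norm_num) g).2 (hfix _ (by decide))
  rw [fixer_PO4, Subgroup.mem_bot] at hmem
  exact hmem

end Cfsg.Agent.Lib.Helper56.Trio
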