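import Cfsg.Agent.Lib.Helper56.Trio.Defs

set_option autoImplicit false

/-! # Trio farm, piece R1: `Rel` is a relation subgroup -/

namespace Cfsg.Agent.Lib.Helper56.Trio

open Cfsg Cfsg.Agent.Lib.Helper27 Matrix
open scoped Pointwise

theorem R1_apply_inv {α : Type*} (g : Equiv.Perm α) (x : α) : g (g⁻¹ x) = x := g.apply_symm_apply x

theorem R1_inv_apply {α : Type*} (g : Equiv.Perm α) (x : α) : g⁻¹ (g x) = x := g.symm_apply_apply x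

/-- [R1] -/
theorem rel_one : Rel 1 1 := by
  refine ⟨fun _ => 0, fun p => ⟨rfl, ?_⟩⟩
  simp

/-- [R1] `c'' i = A *ᵥ c' i + c (σ' i)` -/
theorem rel_mul {g g' : Equiv.Perm GolayPt} {h h' : HH} (a : Rel g h) (b : Rel g' h') :
    Rel (g * g') (h * h') := by
  obtain ⟨c, hc⟩ := a
  obtain ⟨c', hc'⟩ := b
  refine ⟨fun i => (h.1 : Matrix (Fin 3) (Fin 3) (ZMod 2)) *ᵥ c' i + c (h'.2 i), fun p => ⟨?_, ?_⟩⟩
  · change oc (g (g' p)) = h.2 (h'.2 (oc p))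
    rw [(hc (g' p)).1, (hc' p).1]
  · change lam (g (g' p)) = ((h.1 * h'.1 : GL (Fin 3) (ZMod 2)) : Matrix (Fin 3) (Fin 3) (ZMod 2)) *ᵥ lam p
      + ((h.1 : Matrix (Fin 3) (Fin 3) (ZMod 2)) *ᵥ c' (oc p) + c (h'.2 (oc p)))
    rw [(hc (g' p)).2, (hc' p).2, (hc' p).1, Matrix.mulVec_add, Units.val_mul, Matrix.mulVec_mulVec,
      add_assoc]

/-- [R1] `c' i = A⁻¹ *ᵥ c (σ⁻¹ i)` (char 2), apply the hypothesis at `g⁻¹ p` -/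
theorem rel_inv {g : Equiv.Perm GolayPt} {h : HH} (a : Rel g h) : Rel g⁻¹ h⁻¹ := by
  obtain ⟨c, hc⟩ := a
  refine ⟨fun i => - (((h.1⁻¹ : GL (Fin 3) (ZMod 2)) : Matrix (Fin 3) (Fin 3) (ZMod 2)) *ᵥ c (h.2⁻¹ i)),
    fun p => ?_⟩
  have h1 := (hc (g⁻¹ p)).1
  have h2 := (hc (g⁻¹ p)).2
  rw [R1_apply_inv] at h1 h2
  have h3 : oc (g⁻¹ p) = h.2⁻¹ (oc p) := by
    rw [h1, R1_inv_apply]
  refine ⟨h3, ?_⟩
  change lam (g⁻¹ p) = ((h.1⁻¹ : GL (Fin 3) (ZMod 2)) : Matrix (Fin 3) (Fin 3) (ZMod 2)) *ᵥ lam p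
      + - (((h.1⁻¹ : GL (Fin 3) (ZMod 2)) : Matrix (Fin 3) (Fin 3) (ZMod 2)) *ᵥ c (h.2⁻¹ (oc p)))
  rw [h2, Matrix.mulVec_add, Matrix.mulVec_mulVec, ← Units.val_mul, inv_mul_cancel, Units.val_one,
    Matrix.one_mulVec, ← h3, add_neg_cancel_right]

end Cfsg.Agent.Lib.Helper56.Trio
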