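import Cfsg.Agent.Lib.Helper56.Trio.Defs
import Cfsg.Agent.Lib.Helper56.Trio.D0
import Cfsg.Agent.Lib.Helper56.Trio.R1
import Cfsg.Agent.Lib.Helper56.Trio.K1
import Cfsg.Agent.Lib.Helper56.Trio.K2a

set_option autoImplicit false

namespace Cfsg.Agent.Lib.Helper56.Trio

open Cfsg Cfsg.Agent.Lib.Helper27 Cfsg.Agent.Lib.Helper93 Matrix
open scoped Pointwise

/-- [K2] aux : two kernel elements with the same label at `p` agree at `p` -/
theorem K2_agree {g g' : Equiv.Perm GolayPt} (a : Rel g 1) (a' : Rel g' 1) (p : GolayPt)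
    (h : lam (g p) = lam (g' p)) : g p = g' p := by
  obtain ⟨c, hc⟩ := K1_rel_one a
  obtain ⟨c', hc'⟩ := K1_rel_one a'
  apply lab_inj _ _ _ h
  rw [(hc p).1, (hc' p).1]

/-- [K2] -/
theorem ker_card : Nat.card {g : Equiv.Perm GolayPt // g ∈ M24 ∧ Rel g 1} ≤ 64 := by
  have hinj : Function.Injective
      (fun g : {g : Equiv.Perm GolayPt // g ∈ M24 ∧ Rel g 1} =>
        ((lam (g.1 (pt 0)), lam (g.1 (pt 4))) : V3 × V3)) := by
    rintro ⟨g, hg, a⟩ ⟨g', hg', a'⟩ h
    simp only [Prod.mk.injEq] at h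
    have e0 := K2_agree a a' (pt 0) h.1
    have e4 := K2_agree a a' (pt 4) h.2
    have hr : Rel (g⁻¹ * g') 1 := by
      have := rel_mul (rel_inv a) a'
      simpa using this
    have h1 : g⁻¹ * g' = 1 := by
      apply ker_rigid (mul_mem (inv_mem hg) hg') hr
      · show g⁻¹ (g' (pt 0)) = pt 0
        rw [← e0]; simp
      · show g⁻¹ (g' (pt 4)) = pt 4
        rw [← e4]; simp
    apply Subtype.ext
    show g = g'
    exact (inv_mul_eq_one.mp h1)
  have h1 := Nat.card_le_card_of_injective _ hinj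
  have h2 : Nat.card (V3 × V3) = 64 := by
    rw [Nat.card_eq_fintype_card]
    simp [Fintype.card_prod, ZMod.card]
  omega

end Cfsg.Agent.Lib.Helper56.Trio
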