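import Cfsg.Agent.Lib.Helper56.Trio.Defs

set_option autoImplicit false

/-! # Trio farm, piece R2 -/

namespace Cfsg.Agent.Lib.Helper56.Trio

open Cfsg Cfsg.Agent.Lib.Helper27 Matrix
open scoped Pointwise

theorem R2_apply_inv {α : Type*} (g : Equiv.Perm α) (x : α) : g (g⁻¹ x) = x := g.apply_symm_apply x

theorem R2_inv_apply {α : Type*} (g : Equiv.Perm α) (x : α) : g⁻¹ (g x) = x := g.symm_apply_apply x

/-- [R2] -/
theorem rel_smul {g : Equiv.Perm GolayPt} {h : HH} (a : Rel g h) (i : Fin 3) :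
    g • Oct i = Oct (h.2 i) := by
  obtain ⟨c, hc⟩ := a
  ext q
  rw [Finset.mem_smul_finset]
  constructor
  · rintro ⟨p, hp, rfl⟩
    simp only [Oct, Finset.mem_filter, Finset.mem_univ, true_and] at hp ⊢
    change oc (g p) = h.2 i
    rw [(hc p).1, hp]
  · intro hq
    simp only [Oct, Finset.mem_filter, Finset.mem_univ, true_and] at hq ⊢
    refine ⟨g⁻¹ q, ?_, ?_⟩
    · have h1 := (hc (g⁻¹ q)).1
      rw [R2_apply_inv, hq] at h1
      exact (h.2.injective h1).symm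
    · change g (g⁻¹ q) = q
      exact R2_apply_inv g q

/-- [R2] -/
theorem rel_T0 {g : Equiv.Perm GolayPt} {h : HH} (a : Rel g h) : g • T0 = T0 := by
  ext S
  rw [Finset.mem_smul_finset]
  simp only [T0, Finset.mem_image, Finset.mem_univ, true_and]
  constructor
  · rintro ⟨_, ⟨i, rfl⟩, rfl⟩
    exact ⟨h.2 i, (rel_smul a i).symm⟩
  · rintro ⟨i, rfl⟩
    refine ⟨Oct (h.2⁻¹ i), ⟨_, rfl⟩, ?_⟩
    rw [rel_smul a, R2_apply_inv]

end Cfsg.Agent.Lib.Helper56.Trio
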