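import Cfsg.Agent.Lib.Helper56.Trio.Defs
import Cfsg.Agent.Lib.Helper56.Trio.R2
import Cfsg.Agent.Lib.Helper56.Trio.D2
import Cfsg.Agent.Lib.Helper56.Trio.C1

set_option autoImplicit false

namespace Cfsg.Agent.Lib.Helper56.Trio

open Cfsg Cfsg.Agent.Lib.Helper27 Cfsg.Agent.Lib.Helper93 Matrix
open scoped Pointwise

/-- [M1] totality. -/
theorem total (g : ↥(MulAction.stabilizer M24 T0)) : ∃ h, Rel ((g : M24) : Equiv.Perm GolayPt) h := by
  classical
  let f : {g : Equiv.Perm GolayPt // g ∈ M24 ∧ ∃ h, Rel g h} → ↥(MulAction.stabilizer M24 T0) :=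
    fun x => ⟨⟨x.1, x.2.1⟩, by
      obtain ⟨h, hh⟩ := x.2.2
      rw [MulAction.mem_stabilizer_iff]
      exact rel_T0 hh⟩
  have hf : Function.Injective f := by
    intro x y hxy
    apply Subtype.ext
    have := congrArg (fun z : ↥(MulAction.stabilizer M24 T0) => ((z : M24) : Equiv.Perm GolayPt)) hxy
    exact this
  have hbij : Function.Bijective f := by
    apply Function.Injective.bijective_of_nat_card_le hf
    rw [card_stab]
    exact card_A
  obtain ⟨x, rfl⟩ := hbij.2 g
  exact x.2.2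

end Cfsg.Agent.Lib.Helper56.Trio
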