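import Cfsg.Agent.Lib.Helper56.Trio.Defs
import Cfsg.Agent.Lib.Helper56.Trio.D0

set_option autoImplicit false

/-! # Trio farm, piece R3 -/

namespace Cfsg.Agent.Lib.Helper56.Trio

open Cfsg Cfsg.Agent.Lib.Helper27 Matrix
open scoped Pointwise

/-- [R3] -/
theorem rel_fun {h : HH} (a : Rel 1 h) : h = 1 := by
  obtain ⟨c, hc⟩ := a
  have hσ : ∀ i, h.2 i = i := by
    intro i
    obtain ⟨p, hp, _⟩ := lab_surj i 0
    have := (hc p).1
    change oc p = _ at this
    rw [hp] at this
    exact this.symm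
  have hc0 : ∀ i, c i = 0 := by
    intro i
    obtain ⟨p, hp, hl⟩ := lab_surj i 0
    have := (hc p).2
    change lam p = _ at this
    rw [hp, hl, Matrix.mulVec_zero, zero_add] at this
    exact this.symm
  have hA : ∀ v : V3, (h.1 : Matrix (Fin 3) (Fin 3) (ZMod 2)) *ᵥ v = v := by
    intro v
    obtain ⟨p, hp, hl⟩ := lab_surj 0 v
    have := (hc p).2
    change lam p = _ at this
    rw [hl, hc0, add_zero] at this
    exact this.symm
  have hA1 : (h.1 : Matrix (Fin 3) (Fin 3) (ZMod 2)) = 1 := by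
    ext i j
    have := congrFun (hA (Pi.single j 1)) i
    rw [Matrix.mulVec_single_one] at this
    rw [Matrix.one_apply, ← Pi.single_apply]
    exact this
  exact Prod.ext (Units.ext hA1) (Equiv.ext hσ)

end Cfsg.Agent.Lib.Helper56.Trio
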