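import Cfsg.Agent.Lib.Helper56.Trio.Defs
import Cfsg.Agent.Lib.Helper56.Trio.R1
import Cfsg.Agent.Lib.Helper56.Trio.R3
import Cfsg.Agent.Lib.Helper56.Trio.M1

set_option autoImplicit false

namespace Cfsg.Agent.Lib.Helper56.Trio

open Cfsg Cfsg.Agent.Lib.Helper27 Cfsg.Agent.Lib.Helper93 Matrix
open scoped Pointwise

/-- [M2] `Helper54.hom_of_relation` with the subgroup `{(g, h) | Rel g h}` of `stabilizer × HH` -/
theorem exists_hom : ∃ ψ : ↥(MulAction.stabilizer M24 T0) →* HH,
    ∀ (g : ↥(MulAction.stabilizer M24 T0)) (h : HH), Rel ((g : M24) : Equiv.Perm GolayPt) h ↔ ψ g = h := by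
  let R : Subgroup (↥(MulAction.stabilizer M24 T0) × HH) :=
    { carrier := {x | Rel ((x.1 : M24) : Equiv.Perm GolayPt) x.2}
      one_mem' := rel_one
      mul_mem' := fun {a b} ha hb => rel_mul ha hb
      inv_mem' := fun {a} ha => rel_inv ha }
  exact Cfsg.Agent.Lib.Helper54.hom_of_relation R total (fun u hu => rel_fun hu)

end Cfsg.Agent.Lib.Helper56.Trio
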