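import Cfsg.Agent.Lib.Helper56.Trio.Defs

set_option autoImplicit false

namespace Cfsg.Agent.Lib.Helper56.Trio

open Cfsg Cfsg.Agent.Lib.Helper27 Cfsg.Agent.Lib.Helper93 Matrix
open scoped Pointwise

/-- [M3] `Nat.card HH = 168 * 6` -/
theorem card_HH : Nat.card HH = 1008 := by
  have h1 : Nat.card (GL (Fin 3) (ZMod 2)) = 168 := by
    rw [Matrix.card_GL_field]
    simp [Fin.prod_univ_three, ZMod.card]
  have h2 : Nat.card (Equiv.Perm (Fin 3)) = 6 := by
    rw [Nat.card_eq_fintype_card, Fintype.card_perm]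
    rfl
  show Nat.card (GL (Fin 3) (ZMod 2) × Equiv.Perm (Fin 3)) = 1008
  rw [Nat.card_prod, h1, h2]

end Cfsg.Agent.Lib.Helper56.Trio
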