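import Cfsg.Agent.Lib.Helper56.Trio.Defs
import Cfsg.Agent.Lib.Helper56.Trio.D2
import Cfsg.Agent.Lib.Helper56.Trio.K1
import Cfsg.Agent.Lib.Helper56.Trio.K2
import Cfsg.Agent.Lib.Helper56.Trio.M3

set_option autoImplicit false

/-! Trio piece M4. -/

namespace Cfsg.Agent.Lib.Helper56.Trio

open Cfsg Cfsg.Agent.Lib.Helper27 Cfsg.Agent.Lib.Helper93 Matrix
open scoped Pointwise

/-- [M4] -/
theorem hom_props (ψ : ↥(MulAction.stabilizer M24 T0) →* HH)
    (hψ : ∀ (g : ↥(MulAction.stabilizer M24 T0)) (h : HH), Rel ((g : M24) : Equiv.Perm GolayPt) h ↔ ψ g = h) :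
    Function.Surjective ψ ∧ Nat.card ψ.ker = 64 ∧ ∀ x ∈ ψ.ker, x * x = 1 := by
  have hk : Nat.card ψ.ker ≤ 64 := by
    refine le_trans ?_ ker_card
    refine Nat.card_le_card_of_injective
      (fun x : ψ.ker => (⟨(((x : ↥(MulAction.stabilizer M24 T0)) : M24) : Equiv.Perm GolayPt),
        ((x : ↥(MulAction.stabilizer M24 T0)) : M24).2, (hψ _ 1).2 x.2⟩ :
          {g : Equiv.Perm GolayPt // g ∈ M24 ∧ Rel g 1})) ?_
    intro x y hxy
    have h1 : (((x : ↥(MulAction.stabilizer M24 T0)) : M24) : Equiv.Perm GolayPt)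
        = (((y : ↥(MulAction.stabilizer M24 T0)) : M24) : Equiv.Perm GolayPt) :=
      congrArg (fun z : {g : Equiv.Perm GolayPt // g ∈ M24 ∧ Rel g 1} => z.1) hxy
    exact Subtype.ext (Subtype.ext (Subtype.ext h1))
  have hr : Nat.card ψ.range ≤ 1008 := by
    rw [← card_HH]
    exact Subgroup.card_le_card_group _
  have hmul : 64512 = Nat.card ψ.range * Nat.card ψ.ker := by
    rw [← card_stab, Subgroup.card_eq_card_quotient_mul_card_subgroup ψ.ker,
      Nat.card_congr (QuotientGroup.quotientKerEquivRange ψ).toEquiv]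
  have hk64 : Nat.card ψ.ker = 64 := by
    by_contra hne
    have h63 : Nat.card ψ.ker ≤ 63 := by omega
    have := Nat.mul_le_mul hr h63
    omega
  have hr1008 : Nat.card ψ.range = 1008 := by
    rw [hk64] at hmul
    omega
  refine ⟨?_, hk64, ?_⟩
  · rw [← MonoidHom.range_eq_top]
    exact Subgroup.eq_top_of_card_eq _ (by rw [hr1008, card_HH])
  · intro x hx
    have h1 : Rel ((x : M24) : Equiv.Perm GolayPt) 1 := (hψ x 1).2 hx
    have h2 := ker_sq h1
    exact Subtype.ext (Subtype.ext h2)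

end Cfsg.Agent.Lib.Helper56.Trio
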