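import Cfsg.Agent.Lib.Helper56.Trio.Defs
import Cfsg.Agent.Lib.Helper56.Trio.D0
import Cfsg.Agent.Lib.Helper56.Trio.R2

set_option autoImplicit false

/-! Trio piece M5. -/

namespace Cfsg.Agent.Lib.Helper56.Trio

open Cfsg Cfsg.Agent.Lib.Helper27 Cfsg.Agent.Lib.Helper93 Matrix
open scoped Pointwise

theorem M5_Oct_inj : Function.Injective Oct := by
  intro i j hij
  obtain ⟨p, hp, _⟩ := lab_surj i 0
  have h1 : p ∈ Oct i := by simp [Oct, hp]
  rw [hij] at h1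
  have h2 : oc p = j := by simpa [Oct] using h1
  rw [← hp, h2]

theorem M5_Oct_mem (i : Fin 3) : Oct i ∈ T0 := Finset.mem_image_of_mem _ (Finset.mem_univ i)

/-- [M5] -/
theorem part1 (ψ : ↥(MulAction.stabilizer M24 T0) →* HH)
    (hψ : ∀ (g : ↥(MulAction.stabilizer M24 T0)) (h : HH), Rel ((g : M24) : Equiv.Perm GolayPt) h ↔ ψ g = h) (hs : Function.Surjective ψ)
    (e : Equiv.Perm ↥T0) : ∃ g ∈ MulAction.stabilizer Cfsg.M24 T0, ∀ o : ↥T0,
    (g : Equiv.Perm Cfsg.GolayPt) • (o : Finset Cfsg.GolayPt) = ((e o : ↥T0) : Finset Cfsg.GolayPt) := by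
  let β : Fin 3 ≃ ↥T0 := Equiv.ofBijective (fun i => (⟨Oct i, M5_Oct_mem i⟩ : ↥T0)) (by
    constructor
    · intro i j hij
      exact M5_Oct_inj (congrArg Subtype.val hij)
    · rintro ⟨o, ho⟩
      obtain ⟨i, _, rfl⟩ := Finset.mem_image.1 ho
      exact ⟨i, rfl⟩)
  have hβ : ∀ i, ((β i : ↥T0) : Finset GolayPt) = Oct i := fun _ => rfl
  let σ : Equiv.Perm (Fin 3) := β.trans (e.trans β.symm)
  obtain ⟨g, hg⟩ := hs ((1, σ) : HH)
  refine ⟨(g : M24), g.2, ?_⟩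
  intro o
  obtain ⟨i, rfl⟩ := β.surjective o
  have hrel : Rel ((g : M24) : Equiv.Perm GolayPt) ((1, σ) : HH) := (hψ g _).2 hg
  rw [hβ, rel_smul hrel i]
  show Oct (σ i) = _
  rw [← hβ (σ i)]
  congr 1
  simp [σ]

end Cfsg.Agent.Lib.Helper56.Trio
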