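import Cfsg.Agent.Lib.Helper56.Trio.Defs
import Cfsg.Agent.Lib.Helper56.Trio.M2
import Cfsg.Agent.Lib.Helper56.Trio.M4
import Cfsg.Agent.Lib.Helper56.Trio.M5

set_option autoImplicit false

namespace Cfsg.Agent.Lib.Helper56.Trio

open Cfsg Cfsg.Agent.Lib.Helper27 Cfsg.Agent.Lib.Helper93 Matrix
open scoped Pointwise

/-- [M6] `N = ψ.ker`, `QuotientGroup.quotientKerEquivOfSurjective` -/
theorem stmt_T0 : Stmt T0 := by
  obtain ⟨ψ, hψ⟩ := exists_hom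
  obtain ⟨hs, hc, hsq⟩ := hom_props ψ hψ
  refine ⟨fun e => part1 ψ hψ hs e, ψ.ker, inferInstance, hc, hsq, ?_⟩
  exact ⟨QuotientGroup.quotientKerEquivOfSurjective ψ hs⟩

end Cfsg.Agent.Lib.Helper56.Trio
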