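import Cfsg.Agent.Lib.Helper56.Trio.Defs

set_option autoImplicit false

/-! Trio piece TR: transport of the statement along an element of `M24`. -/

namespace Cfsg.Agent.Lib.Helper56.Trio

open Cfsg Cfsg.Agent.Lib.Helper27 Cfsg.Agent.Lib.Helper93 Matrix
open scoped Pointwise

/-- [TR] transport along `k ∈ M24` (pure group actions, no M24 facts). -/
theorem stmt_smul (T : Finset (Finset GolayPt)) (k : M24) (h : Stmt T) : Stmt (k • T) := by
  obtain ⟨h1, N, hN, hcard, hexp, ⟨φ⟩⟩ := h
  refine ⟨?_, ?_⟩
  · intro e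
    let β : ↥T ≃ ↥(k • T) :=
      { toFun := fun o => ⟨k • o.1, Finset.smul_mem_smul_finset o.2⟩
        invFun := fun o => ⟨k⁻¹ • o.1, by
          have := o.2
          rwa [← Finset.inv_smul_mem_iff] at this⟩
        left_inv := fun o => by
          apply Subtype.ext
          simp
        right_inv := fun o => by
          apply Subtype.ext
          simp }
    obtain ⟨g', hg', hgo⟩ := h1 (β.trans (e.trans β.symm))
    refine ⟨k * g' * k⁻¹, ?_, ?_⟩
    · rw [MulAction.mem_stabilizer_iff] at hg' ⊢
      rw [mul_smul, mul_smul, inv_smul_smul, hg']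
    · intro o
      have h2 := hgo (β.symm o)
      have h3 : ((β.trans (e.trans β.symm)) (β.symm o) : ↥T) = β.symm (e o) := by
        simp
      rw [h3] at h2
      have h4 : ((β.symm o : ↥T) : Finset GolayPt) = k⁻¹ • (o : Finset GolayPt) := rfl
      have h5 : ((β.symm (e o) : ↥T) : Finset GolayPt) = k⁻¹ • ((e o : ↥(k • T)) : Finset GolayPt) := rfl
      rw [h4, h5] at h2
      have h6 : ((k * g' * k⁻¹ : M24) : Equiv.Perm GolayPt) • (o : Finset GolayPt)
          = k • (((g' : M24) : Equiv.Perm GolayPt) • (k⁻¹ • (o : Finset GolayPt))) := by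
        show (k * g' * k⁻¹ : M24) • (o : Finset GolayPt) = k • (g' • (k⁻¹ • (o : Finset GolayPt)))
        rw [mul_smul, mul_smul]
      rw [h6, h2, smul_inv_smul]
  · let E : ↥(MulAction.stabilizer M24 T) ≃* ↥(MulAction.stabilizer M24 (k • T)) :=
      MulAction.stabilizerEquivStabilizer (g := k) rfl
    have hN' : (N.map (E : ↥(MulAction.stabilizer M24 T) →* ↥(MulAction.stabilizer M24 (k • T)))).Normal :=
      hN.map _ E.surjective
    refine ⟨N.map (E : ↥(MulAction.stabilizer M24 T) →* ↥(MulAction.stabilizer M24 (k • T))), hN', ?_, ?_, ?_⟩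
    · rw [← hcard]
      exact Nat.card_congr (E.subgroupMap N).symm.toEquiv
    · rintro x ⟨y, hy, rfl⟩
      have := hexp y hy
      rw [← map_mul, this, map_one]
    · exact ⟨(QuotientGroup.congr N _ E rfl).symm.trans φ⟩

end Cfsg.Agent.Lib.Helper56.Trio
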